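import Mathlib
import Cfsg.Agent.Lib.Helper49.GamO7

set_option autoImplicit false

namespace Cfsg.Agent.Lib.Helper59.GF

theorem sigma_eq_pow {F : Type*} [Field F] [Fintype F] {p f : ℕ} [Fact p.Prime]
    (hF : Fintype.card F = p ^ f) (σ : F ≃+* F) (hσ : orderOf σ = 2) :
    Even f ∧ ∀ x, σ x = x ^ (p ^ (f / 2)) := by
  obtain ⟨φ, hφ, hord, hall, -⟩ := Cfsg.Agent.Lib.Helper49.exists_frob hF
  have hpow : ∀ (k : ℕ) (x : F), (φ ^ k) x = x ^ (p ^ k) := by
    intro k
    induction k with
    | zero => intro x; simp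
    | succ k ih =>
      intro x
      rw [pow_succ, RingAut.mul_apply, hφ, ih, ← pow_mul, pow_succ, mul_comm]
  obtain ⟨k, hk⟩ := hall σ
  have hk' : σ = φ ^ (k % f) := by rw [hk, ← hord, pow_mod_orderOf]
  have hσ1 : σ ≠ 1 := by
    intro h
    rw [h, orderOf_one] at hσ
    omega
  have hf0 : 0 < f := by
    rcases Nat.eq_zero_or_pos f with h | h
    · exfalso
      apply hσ1
      rw [h] at hord
      have hfin : Finite (F ≃+* F) := Finite.of_injective (fun σ : F ≃+* F => (σ : F → F))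
        DFunLike.coe_injective
      exact absurd hord (orderOf_pos φ).ne'
    · exact h
  have hlt : k % f < f := Nat.mod_lt _ hf0
  have h0 : k % f ≠ 0 := by
    intro h
    apply hσ1
    rw [hk', h, pow_zero]
  have h2 : f ∣ 2 * (k % f) := by
    have h3 : φ ^ (2 * (k % f)) = 1 := by
      rw [mul_comm, pow_mul, ← hk', ← hσ, pow_orderOf_eq_one]
    rw [← hord]
    rw [← hord] at h3
    exact orderOf_dvd_iff_pow_eq_one.2 h3
  obtain ⟨c, hc⟩ := h2
  have hc1 : c = 1 := by
    rcases c with _ | _ | c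
    · omega
    · rfl
    · exfalso
      have : f * (c + 1 + 1) ≥ f * 2 := Nat.mul_le_mul_left f (by omega)
      omega
  rw [hc1, mul_one] at hc
  refine ⟨⟨k % f, by omega⟩, fun x => ?_⟩
  have : f / 2 = k % f := by omega
  rw [this, hk', hpow]

end Cfsg.Agent.Lib.Helper59.GF
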