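import Mathlib

set_option autoImplicit false

namespace Cfsg.Agent.Lib.Helper59.GF

theorem ringChar_ne_two_of_odd {F : Type*} [Field F] [Fintype F] (h : Odd (Fintype.card F)) :
    ringChar F ≠ 2 := by
  intro h2
  have := FiniteField.even_card_of_char_two h2
  rw [Nat.odd_iff] at h
  omega

theorem exists_u_lam {F F₀ : Type*} [Field F] [Fintype F] [Field F₀] [Fintype F₀] (q₀ : ℕ)
    (hq₀ : Fintype.card F₀ = q₀) (hq : Fintype.card F = q₀ ^ 2) (hodd : Odd q₀)
    (σ : F ≃+* F) (hσ : ∀ x, σ x = x ^ q₀) (j : F₀ →+* F)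
    (hj : ∀ x, σ x = x ↔ x ∈ Set.range j) :
    ∃ (u lam : F) (ν₀ : F₀), u * σ u = j ν₀ ∧ lam * lam = j ν₀ ∧ ¬ IsSquare ν₀ ∧ ¬ IsSquare u ∧
      (IsSquare lam ↔ q₀ % 4 = 3) := by
  have hcF : ringChar F ≠ 2 := ringChar_ne_two_of_odd (by rw [hq]; exact Odd.pow hodd)
  have hcF₀ : ringChar F₀ ≠ 2 := ringChar_ne_two_of_odd (by rw [hq₀]; exact hodd)
  obtain ⟨t, ht⟩ := hodd
  have hhalf : Fintype.card F / 2 = (q₀ + 1) * t := by
    rw [hq, ht]
    have : (2 * t + 1) ^ 2 = 2 * ((2 * t + 1 + 1) * t) + 1 := by ring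
    omega
  have hhalf₀ : Fintype.card F₀ / 2 = t := by rw [hq₀, ht]; omega
  obtain ⟨u, hu⟩ := FiniteField.exists_nonsquare hcF
  have hu0 : u ≠ 0 := by
    rintro rfl
    exact hu IsSquare.zero
  have hfix : σ (u * σ u) = u * σ u := by
    rw [map_mul, hσ (σ u), hσ u, ← pow_mul, ← pow_two, ← hq, FiniteField.pow_card, mul_comm]
  obtain ⟨ν₀, hν₀⟩ := (hj _).1 hfix
  have hν : j ν₀ = u ^ (q₀ + 1) := by rw [hν₀, hσ, pow_succ, mul_comm]
  have hν0 : ν₀ ≠ 0 := by
    rintro rfl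
    rw [map_zero] at hν
    exact pow_ne_zero _ hu0 hν.symm
  have hjν0 : j ν₀ ≠ 0 := by
    intro h
    exact hν0 (j.injective (by rw [h, map_zero]))
  have hνns : ¬ IsSquare ν₀ := by
    intro h
    apply hu
    rw [FiniteField.isSquare_iff hcF₀ hν0, hhalf₀] at h
    rw [FiniteField.isSquare_iff hcF hu0, hhalf, pow_mul, ← hν, ← map_pow, h, map_one]
  have hνt : ν₀ ^ t = -1 := by
    rcases FiniteField.pow_dichotomy hcF₀ hν0 with h | h
    · exfalso
      apply hνns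
      rw [FiniteField.isSquare_iff hcF₀ hν0]
      exact h
    · rwa [hhalf₀] at h
  have hsq : IsSquare (j ν₀) := by
    rw [FiniteField.isSquare_iff hcF hjν0, hhalf, ← map_pow, mul_comm, pow_mul, hνt, ht]
    have : Even (2 * t + 1 + 1) := ⟨t + 1, by ring⟩
    rw [this.neg_one_pow, map_one]
  obtain ⟨lam, hlam⟩ := hsq
  have hlam0 : lam ≠ 0 := by
    rintro rfl
    rw [mul_zero] at hlam
    exact hjν0 hlam
  have hneg : (-1 : F) ≠ 1 := by
    intro h
    apply hcF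
    have h2 : (2 : F) = 0 := by linear_combination -h
    have h3 : ringChar F ∣ 2 := by
      rw [← ringChar.spec]
      exact_mod_cast h2
    rcases (Nat.dvd_prime Nat.prime_two).1 h3 with h4 | h4
    · exfalso
      have := CharP.ringChar_ne_one (R := F)
      exact this h4
    · exact h4
  refine ⟨u, lam, ν₀, hν₀.symm, hlam.symm, hνns, hu, ?_⟩
  rw [FiniteField.isSquare_iff hcF hlam0, hhalf]
  have e1 : lam ^ ((q₀ + 1) * t) = (-1) ^ (t + 1) := by
    have : (q₀ + 1) * t = 2 * (t * (t + 1)) := by rw [ht]; ring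
    rw [this, pow_mul, pow_two, ← hlam, pow_mul, ← map_pow, hνt, map_neg, map_one]
  rw [e1]
  constructor
  · intro h
    rcases Nat.even_or_odd (t + 1) with h1 | h1
    · obtain ⟨s, hs⟩ := h1
      omega
    · rw [h1.neg_one_pow] at h
      exact absurd h hneg
  · intro h
    have : Even (t + 1) := ⟨(t + 1) / 2, by omega⟩
    rw [this.neg_one_pow]

end Cfsg.Agent.Lib.Helper59.GF
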