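import Mathlib
import Cfsg.Agent.Lib.Helper18.AutPSL.Split

set_option autoImplicit false

namespace Cfsg.Agent.Lib.Helper59.GF

theorem count_lemma {X : Type*} [Group X] (H K H₁ : Subgroup X) [K.Normal] (hKH : K ≤ H) (x : X)
    (h4 : K.relIndex H = 4) (hK1 : K ≤ H₁) (hC1 : H ⊓ Subgroup.centralizer {x} ≤ H₁)
    (hne : ∃ h ∈ H, h ∉ H₁) :
    (H ⊓ Subgroup.centralizer {x} ≤ K → Cfsg.splitClassCount H K x = 4) ∧
    (¬ (H ⊓ Subgroup.centralizer {x} ≤ K) → Cfsg.splitClassCount H K x = 2) := by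
  have hcount := Cfsg.Agent.Lib.Helper18.AutPSL.splitClassCount_eq H.subtype
    (QuotientGroup.mk' (K.subgroupOf H)) (QuotientGroup.mk'_surjective _) x
  rw [Subgroup.range_subtype, QuotientGroup.ker_mk', Subgroup.subgroupOf_map_subtype,
    inf_eq_left.2 hKH, Subgroup.index_map, QuotientGroup.ker_mk',
    MonoidHom.range_eq_top.2 (QuotientGroup.mk'_surjective _), Subgroup.index_top, mul_one]
    at hcount
  set C' : Subgroup ↥H := (Subgroup.centralizer {x}).comap H.subtype with hC'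
  set K' : Subgroup ↥H := K.subgroupOf H with hK'
  have hK4 : K'.index = 4 := h4
  have hle : C' ⊔ K' ≤ H₁.subgroupOf H := by
    apply sup_le
    · intro h hh
      exact hC1 ⟨h.2, hh⟩
    · intro h hh
      exact hK1 hh
  have hne1 : (C' ⊔ K').index ≠ 1 := by
    intro h1
    rw [Subgroup.index_eq_one] at h1
    obtain ⟨h, hh, hh1⟩ := hne
    apply hh1
    have : (⟨h, hh⟩ : ↥H) ∈ C' ⊔ K' := by rw [h1]; exact Subgroup.mem_top _
    exact hle this
  have hmul : K'.relIndex (C' ⊔ K') * (C' ⊔ K').index = 4 := by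
    rw [Subgroup.relIndex_mul_index le_sup_right, hK4]
  have hiff : C' ≤ K' ↔ H ⊓ Subgroup.centralizer {x} ≤ K := by
    constructor
    · intro h y hy
      exact h (show (⟨y, hy.1⟩ : ↥H) ∈ C' from hy.2)
    · intro h y hy
      exact h ⟨y.2, hy⟩
  rw [hcount]
  constructor
  · intro h
    rw [sup_eq_right.2 (hiff.2 h), hK4]
  · intro h
    have hr1 : K'.relIndex (C' ⊔ K') ≠ 1 := by
      intro h1
      rw [Subgroup.relIndex_eq_one] at h1
      exact h (hiff.1 (le_sup_left.trans h1))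
    generalize K'.relIndex (C' ⊔ K') = a at hmul hr1
    generalize (C' ⊔ K').index = b at hmul hne1 ⊢
    have hb : b ∣ 4 := ⟨a, by rw [← hmul, mul_comm]⟩
    have hb4 : b ≤ 4 := Nat.le_of_dvd (by norm_num) hb
    interval_cases b
    · omega
    · omega
    · rfl
    · omega
    · omega

end Cfsg.Agent.Lib.Helper59.GF
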